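import Cfsg.Agent.H481.RG.WittP
import Cfsg.Agent.H91.U.Std

/-!
# S5714, TEAM RG: `witt_gu` (B5, helper481)
-/

set_option autoImplicit false

namespace Cfsg.Agent.H481.RG

open Cfsg Cfsg.Agent.H178.RG
open Polynomial

variable {F : Type} [Field F] [Fintype F]

theorem witt_gu (n q : ℕ) (hF : Fintype.card F = q ^ 2) :
    WittP ((Units.coeHom (Matrix (Fin n) (Fin n) F)).comp (Cfsg.Agent.H178.RG.GU n F q).subtype) (hermForm n F q) (fun _ => 0) := by
  refine wittP_of _ _ _ (fun g v w => g.2 v w) (fun _ _ => rfl) ?_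
  intro d w w' hw hw' hB _
  obtain ⟨g, hg, hgw⟩ := Cfsg.Agent.H91.U.witt_family (Cfsg.Agent.H91.U.hform_sB hF n) hw hw' (fun i j => hB j i)
  have h1 : ∀ v, (LinearMap.toMatrix' (g : (Fin n → F) →ₗ[F] (Fin n → F))).mulVec v = g v := fun v =>
    LinearMap.toMatrix'_mulVec _ _
  let u : GL (Fin n) F :=
    { val := LinearMap.toMatrix' (g : (Fin n → F) →ₗ[F] (Fin n → F))
      inv := LinearMap.toMatrix' (g.symm : (Fin n → F) →ₗ[F] (Fin n → F))
      val_inv := by
        rw [← LinearMap.toMatrix'_comp]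
        simp
      inv_val := by
        rw [← LinearMap.toMatrix'_comp]
        simp }
  refine ⟨⟨u, fun x y => ?_⟩, fun i => ?_⟩
  · show hermForm n F q ((LinearMap.toMatrix' (g : (Fin n → F) →ₗ[F] (Fin n → F))).mulVec x)
      ((LinearMap.toMatrix' (g : (Fin n → F) →ₗ[F] (Fin n → F))).mulVec y) = _
    rw [h1, h1]
    exact hg y x
  · show (LinearMap.toMatrix' (g : (Fin n → F) →ₗ[F] (Fin n → F))).mulVec (w i) = _
    rw [h1, hgw]

end Cfsg.Agent.H481.RG
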